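import Mathlib
import Cfsg.Agent.Lib.H85.Rk2Blk
import Cfsg.Agent.Lib.Cyc.Iso

/-! Labelled characters for nilpotent blocks and for transitive inertial actions. -/

set_option autoImplicit false
set_option linter.unusedSectionVars false
set_option linter.style.haveILetI false
attribute [local irreducible] H33.instFieldF

namespace H85

open Cfsg H84 H35 Finset MonoidAlgebra
open H33 (F eB fB chiL OG redA red O)
open H86 (Cen Nor Supp Inv br emb cj cs trI csEquiv eS fS IsMaxPair PairOf St)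
open Subgroup (zpowers)
open H35C (AF DL FreeAb)
open scoped ComplexConjugate SubFin IsMulCommutative

variable {G : Type*} [Group G] [Fintype G] {p : ℕ} [hp : Fact p.Prime] {M : Ideal AlgInt}
  [M.IsMaximal] {B : Set (IrrCharacter G)} {P H : Subgroup G} {e : MonoidAlgebra (F M) G}

namespace MP

theorem freeAb (hab : P ≤ Cen P) (hf : Free P e) : FreeAb (inq P e) :=
  ⟨fun a b => Subtype.ext (hab b.2 a a.2), hf.inq⟩

theorem af (h : MP p M B P e) (hab : P ≤ Cen P) (hf : Free P e) :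
    AF p M B P e (MulEquiv.refl P) (inq P e) :=
  ⟨h, freeAb hab hf, fun u v => (h.fus_iff_inq hab u v).trans
    (exists_congr fun _ => and_congr_right fun _ => eq_comm), fun _ hu h1 => h.rank_loc_z hab hf hu h1⟩

theorem mem_St_subgroupOf {F : Type*} [Field F] (hPH : P ≤ H) (e : MonoidAlgebra F H) (t : H) :
    t ∈ St ⊤ (P.subgroupOf H) e ↔ (t : G) ∈ St ⊤ P (emb H.subtype e) := by
  rw [St_subgroupOf hPH, Subgroup.mem_subgroupOf, H86.mem_St, H86.mem_St]
  simp

theorem free_subgroupOf {F : Type*} [Field F] (hPH : P ≤ H) {e : MonoidAlgebra F H}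
    (hf : Free P (emb H.subtype e)) : Free (P.subgroupOf H) e := fun g hg x hx h1 h2 => by
  rw [← H86.mem_Cen_map H.subtype_injective, Subgroup.map_subgroupOf_eq_of_le hPH]
  exact hf g ((mem_St_subgroupOf hPH e g).1 hg) x hx (fun h => h1 (Subtype.ext h))
    (congrArg Subtype.val h2)

theorem af_subgroupOf {c : Set (IrrCharacter H)} {e : MonoidAlgebra (F M) H}
    (h : MP p M c (P.subgroupOf H) e) (hN : Nor P ≤ H) (hab : P ≤ Cen P)
    (hf : Free P (emb H.subtype e)) :
    AF p M c (P.subgroupOf H) e (Subgroup.subgroupOfEquivOfLe (Subgroup.le_normalizer.trans hN))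
      (inq P (emb H.subtype e)) := by
  have hPH : P ≤ H := Subgroup.le_normalizer.trans hN
  have hab' := ab_subgroupOf hPH hab
  refine ⟨h, freeAb hab hf, fun u v => ?_,
    fun _ hu h1 => h.rank_loc_z hab' (free_subgroupOf hPH hf) hu h1⟩
  rw [H86.fus_iff_of_ab h hab' u.2]
  constructor
  · rintro ⟨t, ht, h1⟩
    obtain ⟨α, hα, h2⟩ := exists_mem_inq ((mem_St_subgroupOf hPH e t).1 ht)
    exact ⟨α, hα, Subtype.ext ((congrArg Subtype.val h1).trans
      (h2 (Subgroup.subgroupOfEquivOfLe hPH u)).symm)⟩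
  · rintro ⟨α, hα, h1⟩
    obtain ⟨t, ht, h2⟩ := mem_inq.1 hα
    exact ⟨⟨t, hN (H86.St_le_Nor _ _ _ ht)⟩, (mem_St_subgroupOf hPH e _).2 ht,
      Subtype.ext ((congrArg Subtype.val h1).trans (h2 _))⟩

theorem nonempty_DL_of_ctrl (h : MP p M B P e) (hab : P ≤ Cen P) (hc : Ctrl p P e) (h1 : P ≠ ⊥) :
    Nonempty (DL p B 1 (Nat.card P)) := by
  letI : DecidableEq (IrrCharacter G) := Classical.decEq _
  obtain ⟨χ, hχ, h0⟩ := H33.exists_height_zero (p := p) h.hB
  have hb := (h.ctrl_iff hab).1 hc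
  have hf : Free P e := free_of_inq fun α hα _ _ _ => by rwa [hb, Subgroup.mem_bot] at hα
  have hk := h.card_mul_eq hab hf
  rw [hb, Subgroup.card_bot, h.blockRank_of_ctrl hc, ← card_bset] at hk
  have hP : 1 < Nat.card P := (Subgroup.one_lt_card_iff_ne_bot P).2 h1
  have hY : ((bset B).erase χ).card + 1 = Nat.card P := by
    rw [card_erase_add_one (mem_bset.2 hχ)]; omega
  refine ⟨⟨{χ}, (bset B).erase χ, fun _ => 1, 1, by simpa using hχ,
    fun ψ => by simp [mem_bset, and_comm], rfl, by omega, card_pos.1 (by omega), Or.inl rfl,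
    fun _ _ => Or.inl rfl, by simp, fun ψ hψ g hg => ?_, by simpa using h0⟩⟩
  obtain ⟨μ, hμ⟩ := h.exists_pstar_of_ctrl hc hχ h0 (mem_bset.1 (mem_of_mem_erase hψ))
  rw [hμ, h.pstar_reg (hc.stab (irr_class μ)) hχ hg, (freeAb hab hf).irr_one]
  simp

theorem nonempty_DL_of_card [IsMulCommutative P] (h : MP p M B P e) (hab : P ≤ Cen P)
    (hf : Free P e) (h1 : P ≠ ⊥) (hr : Nat.card P = Nat.card (inq P e) + 1)
    (hk : Nat.card B = Nat.card P) : Nonempty (DL p B (Nat.card (inq P e)) (Nat.card P)) := by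
  letI : DecidableEq (IrrCharacter G) := Classical.decEq _
  letI : DecidableEq G := Classical.decEq _
  haveI : Nontrivial P := (Subgroup.nontrivial_iff_ne_bot P).2 h1
  obtain ⟨u, hu⟩ := exists_ne (1 : P)
  have hu' : (u : G) ≠ 1 := fun h => hu (Subtype.ext h)
  choose a ha using fun χ : IrrCharacter G => h.exists_int_dv hab hf hr (irr_gen χ) hu
  have h2 := h.sum_dv_inq hab hf hu (one_mem _)
  simp only [MulAut.one_apply, ha, map_intCast, ← sq] at h2
  have h3 : ∑ χ ∈ bset B, a χ ^ 2 = ∑ χ ∈ bset B, 1 := by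
    rw [sum_const, card_bset, hk, nsmul_one]; exact_mod_cast h2
  have h4 : ∀ χ ∈ B, a χ = 1 ∨ a χ = -1 := fun χ hχ => sq_eq_one_iff.1
    ((sum_eq_sum_iff_of_le fun χ hχ => by
      have : a χ ≠ 0 := fun h0 =>
        h.dv_ne_zero' hab hf hu (mem_bset.1 hχ) (by rw [ha, h0, Int.cast_zero])
      have := sq_pos_of_ne_zero this
      omega).1 h3.symm χ (mem_bset.2 hχ)).symm
  obtain ⟨ψ, hψ⟩ := H33.block_nonempty h.hB
  obtain ⟨Y, hY⟩ := h.exists_reps
  have h5 : ∀ χ ∈ B, ∀ g, p ∣ orderOf g →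
      (a χ : ℂ) * (χ : G → ℂ) g = ∑ y ∈ Y.erase 1, Phi p M P e y g := fun χ hχ g hg => by
    rw [H35C.irr_sing h (h.af hab hf).ro hY hχ hg, mul_sum]
    refine sum_congr rfl fun y hy => ?_
    rw [h.dv_fus (h.fus_of_card hab hf hr hu (v := ⟨y, hY.mem y (mem_of_mem_erase hy)⟩)
      fun h => ne_of_mem_erase hy (congrArg Subtype.val h)) (irr_class χ), ha, ← mul_assoc]
    rcases h4 χ hχ with h | h <;> simp [h]
  refine ⟨⟨(bset B).erase ψ, {ψ}, a, -a ψ, fun χ hχ => mem_bset.1 (mem_of_mem_erase hχ),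
    fun χ => ?_, ?_, by rw [card_singleton, mul_one, hr], by simp, by rcases h4 ψ hψ with h | h <;> simp [h],
    fun χ hχ => h4 χ (mem_bset.1 (mem_of_mem_erase hχ)), fun χ hχ χ' hχ' g hg => by
      rw [h5 χ (mem_bset.1 (mem_of_mem_erase hχ)) g hg,
        h5 χ' (mem_bset.1 (mem_of_mem_erase hχ')) g hg], fun χ hχ g hg => ?_, fun χ hχ => ?_⟩⟩
  · simp only [mem_singleton, mem_erase, mem_bset]
    exact ⟨fun h => ⟨h ▸ hψ, fun h' => h'.1 h⟩, fun h => not_not.1 fun h' => h.2 ⟨h', h.1⟩⟩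
  · rw [card_erase_of_mem (mem_bset.2 hψ), card_bset, hk, hr, Nat.add_sub_cancel]
  · have h6 := h.sum_reg_conj_dv u.2 hu' hg
    simp only [ha, map_intCast] at h6
    rw [← add_sum_erase _ _ (mem_bset.2 hψ)] at h6
    rw [mem_singleton.1 hχ, sum_congr rfl fun _ _ => mul_comm _ _]
    push_cast
    linear_combination -h6
  · have hχ' := mem_bset.1 (mem_of_mem_erase hχ)
    rw [← h.red_dv_ne_zero_iff u.2 (h.rank_loc_z hab hf u.2 hu') hχ', ha]
    rcases h4 χ hχ' with h | h <;> simp [h]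

theorem nonempty_DL_klein {B : Set (IrrCharacter G)} (h : MP 2 M B P e) (hV : IsKleinFour P) :
    Nonempty (DL 2 B (Nat.card (inq P e)) (Nat.card P)) := by
  have h2 := H34.rk2_of_isKleinFour hV
  haveI := h2.isMulCommutative
  have h1 : P ≠ ⊥ := (Subgroup.one_lt_card_iff_ne_bot P).1 (by rw [hV.card_four]; norm_num)
  rcases h.card_inq_of_rk2 h2 with h3 | h3
  · rw [h3]
    exact h.nonempty_DL_of_ctrl h2.le_centralizer
      ((h.ctrl_iff h2.le_centralizer).2 (Subgroup.card_eq_one.1 h3)) h1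
  · have h4 := (h.counts_of_rk2 h2).2
    rw [h3, hV.card_four] at h4
    exact h.nonempty_DL_of_card h2.le_centralizer (h.free_of_rk2 h2) h1 (by rw [h3, hV.card_four])
      (by rw [hV.card_four]; omega)

end MP

end H85
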